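import Mathlib
import Cfsg.Prelude.Def_Characters
import Cfsg.Prelude.Def_ParabolicCharacters

set_option autoImplicit false

namespace Cfsg.Agent.Lib.Helper36.Sti

universe u v

/-- Package DC: the inner product of the permutation characters on `G / PJ` and `G / PK` is the
number of `(PJ, PK)`-double cosets, counted through a system `n w`, `w ∈ S`, of representatives. -/
def PkgDc : Prop := ∀ {G : Type u} [Group G] [Fintype G] (PJ PK : Subgroup G) {ι : Type v}
  (S : Finset ι) (n : ι → G),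
  (∀ g : G, ∃ w ∈ S, ∃ h ∈ PJ, ∃ k ∈ PK, g = h * n w * k) →
  (∀ w ∈ S, ∀ w' ∈ S, (∃ h ∈ PJ, ∃ k ∈ PK, n w' = h * n w * k) → w = w') →
  (Nat.card G : ℂ)⁻¹ * ∑ x : G, Cfsg.fixedPointCharacter PJ x * Cfsg.fixedPointCharacter PK x
    = (S.card : ℂ)

/-- Package SUM: the double alternating sum of the numbers of `w` with `J ⊆ ascL w`, `K ⊆ ascR w`
is `1` when exactly one `w0` has `ascR w0 = ∅`, and `ascL w0 = ∅` too. -/
def PkgSum : Prop := ∀ {ι : Type v} (W : Finset ι) (R : Finset ℕ) (ascL ascR : ι → Finset ℕ)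
  (w0 : ι),
  w0 ∈ W → (∀ w ∈ W, ascL w ⊆ R) → (∀ w ∈ W, ascR w ⊆ R) →
  (∀ w ∈ W, ascR w = ∅ → w = w0) → ascR w0 = ∅ → ascL w0 = ∅ →
  ∑ J ∈ R.powerset, ∑ K ∈ R.powerset, (-1 : ℂ) ^ J.card * (-1 : ℂ) ^ K.card *
    (((W.filter (fun w => J ⊆ ascL w ∧ K ⊆ ascR w)).card : ℕ) : ℂ) = 1

/-- Package IRRN: an alternating sum of permutation characters whose "norm", computed through the
pairwise inner products `c J K`, is `1` and whose degree is a positive integer is an irreducible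
character. -/
def PkgIrrN : Prop := ∀ {G : Type u} [Group G] [Fintype G] (R : Finset ℕ)
  (P : Finset ℕ → Subgroup G) (c : Finset ℕ → Finset ℕ → ℂ) (m : ℕ),
  (∀ J ∈ R.powerset, ∀ K ∈ R.powerset,
    (Nat.card G : ℂ)⁻¹ * ∑ x : G, Cfsg.fixedPointCharacter (P J) x *
      Cfsg.fixedPointCharacter (P K) x = c J K) →
  ∑ J ∈ R.powerset, ∑ K ∈ R.powerset, (-1 : ℂ) ^ J.card * (-1 : ℂ) ^ K.card * c J K = 1 →
  ∑ J ∈ R.powerset, (-1 : ℂ) ^ J.card * Cfsg.fixedPointCharacter (P J) 1 = (m : ℂ) → 0 < m →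
  Cfsg.IsIrrCharacter G
    (fun g => ∑ J ∈ R.powerset, (-1 : ℂ) ^ J.card * Cfsg.fixedPointCharacter (P J) g)

/-- Package VAN: an irreducible character whose degree is the order of a Sylow `p`-subgroup
vanishes at the elements of order divisible by `p`. -/
def PkgVan : Prop := ∀ {G : Type u} [Group G] [Finite G] (p : ℕ) [Fact p.Prime] (χ : G → ℂ)
  (P : Sylow p G), Cfsg.IsIrrCharacter G χ → χ 1 = (Nat.card ↥(P : Subgroup G) : ℂ) →
  ∀ g : G, p ∣ orderOf g → χ g = 0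

end Cfsg.Agent.Lib.Helper36.Sti
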